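import Cfsg.Agent.PQ.Mk.Tw

/-!
# PQ: the algebra and the values of the twisted operators `opx` (helper43)

`mono_char`, `dt_char`, `Kx_char`, `Kx_conj`, `Kx_inv`, `Kx_real`, `opx_cls`, `opx_gen`, `opx_adj`, `opx_empty`, `opx_zero`,
`opx_iso`, `opx_id`, `opx_res`, `opx_ind`.
-/

set_option autoImplicit false
set_option linter.unusedSectionVars false
set_option maxHeartbeats 400000

namespace Cfsg.Agent.PQ.Mk

open Module Cfsg Cfsg.Agent.OddOrderCharacters.VChar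
open scoped ComplexConjugate

/-- the character of a monomial representation -/
theorem mono_char {G X : Type} [Group G] [Fintype X] [DecidableEq X] (a : G → X → X) (c : G → X → ℂ)
    (a1 : ∀ x, a 1 x = x) (am : ∀ g h x, a (g * h) x = a g (a h x)) (c1 : ∀ x, c 1 x = 1)
    (cm : ∀ g h x, c (g * h) x = c g (a h x) * c h x) : IsCharacter G fun g => ∑ x, if a g x = x then c g x else 0 := by
  let m : G →* Matrix X X ℂ :=
    { toFun g := Matrix.of fun y x => if a g x = y then c g x else 0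
      map_one' := by
        ext y x
        simp [a1, c1, Matrix.one_apply, eq_comm]
      map_mul' g h := by
        ext y x
        simp [Matrix.mul_apply, am, cm] }
  have h := PermutationGroups.PermChar.isCharacter_of_rep (V := X → ℂ)
    ((Matrix.toLinAlgEquiv' : Matrix X X ℂ ≃ₐ[ℂ] _).toMulEquiv.toMonoidHom.comp m)
  convert h using 2 with g
  exact (Matrix.trace_toLin'_eq (m g)).symm

/-- the sum of `χ (det)` over the fixed members of an invariant family of subspaces is a character -/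
theorem dt_char {G F M : Type} [Group G] [Field F] [AddCommGroup M] [Module F M] [FiniteDimensional F M] (χ : MulChar F ℂ)
    (ρ : G →* (M ≃ₗ[F] M)) (T : Finset (Submodule F M)) {d : ℕ} (hd : ∀ U ∈ T, finrank F U = d)
    (hT : ∀ g, ∀ U ∈ T, U.map (ρ g : M →ₗ[F] M) ∈ T) : IsCharacter G fun g => ∑ U ∈ T, χ (dt (ρ g : M →ₗ[F] M) U) := by
  classical
  have key : ∀ U : T, ∃ (ι : (Fin d → F) →ₗ[F] M) (r : M →ₗ[F] (Fin d → F)),
      (∀ y, ι y ∈ U.1) ∧ (∀ y, r (ι y) = y) ∧ ∀ x ∈ U.1, ι (r x) = x := fun U => by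
    obtain ⟨e⟩ : Nonempty (U.1 ≃ₗ[F] (Fin d → F)) := FiniteDimensional.nonempty_linearEquiv_of_finrank_eq (by simp [hd _ U.2])
    obtain ⟨p, hp⟩ := U.1.subtype.exists_leftInverse_of_injective U.1.ker_subtype
    have h1 : ∀ x : U.1, p x = x := fun x => LinearMap.congr_fun hp x
    exact ⟨U.1.subtype ∘ₗ (e.symm : _ →ₗ[F] _), (e : _ →ₗ[F] _) ∘ₗ p, fun y => (e.symm y).2, fun y => by simp [h1],
      fun x hx => by simpa using congrArg Subtype.val (h1 ⟨x, hx⟩)⟩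
  choose ι r h1 h2 h3 using key
  let a : G → T → T := fun g U => ⟨_, hT g U U.2⟩
  have h := mono_char a (fun g U => χ (LinearMap.det (r (a g U) ∘ₗ (ρ g : M →ₗ[F] M) ∘ₗ ι U)))
    (fun U => Subtype.ext (by simp [a])) (fun g h U => Subtype.ext (by simp [a, ← Submodule.map_comp]; rfl))
    (fun U => by
      rw [show a 1 U = U from Subtype.ext (by simp [a]), show r U ∘ₗ (ρ 1 : M →ₗ[F] M) ∘ₗ ι U = 1 from
        LinearMap.ext fun y => by simp [h2], map_one, map_one])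
    fun g h U => by
      rw [← map_mul, ← map_mul, show a (g * h) U = a g (a h U) from Subtype.ext (by simp [a, ← Submodule.map_comp]; rfl)]
      refine congrArg _ (congrArg _ (LinearMap.ext fun y => ?_))
      simp only [Module.End.mul_apply, LinearMap.comp_apply, map_mul, LinearEquiv.coe_coe, LinearEquiv.mul_apply]
      rw [h3 (a h U) (ρ h (ι U y)) ⟨_, h1 U y, rfl⟩]
  convert h using 2 with g
  rw [← Finset.sum_coe_sort]
  refine Finset.sum_congr rfl fun U _ => ?_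
  split_ifs with e
  · rw [e, dt_inj (f' := r U ∘ₗ (ρ g : M →ₗ[F] M) ∘ₗ ι U) (r U) (inv_iff.2 (congrArg Subtype.val e))
      (fun x hx => by simp [h3 U x hx]) fun x hx h0 => by rw [← h3 U x hx, h0, map_zero],
      show U.1.map (r U) = ⊤ from eq_top_iff.2 fun y _ => ⟨_, h1 U y, h2 U y⟩, dt_top]
  · rw [dt_of_not fun h => e (Subtype.ext (inv_iff.1 h)), MulChar.map_zero]

variable {o : Bool} {F V V' V'' : Type} [Field F] [AddCommGroup V] [Module F V] [AddCommGroup V'] [Module F V']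
  [AddCommGroup V''] [Module F V''] {Φ : Fm o F V} {Φ' : Fm o F V'} {Φ'' : Fm o F V''} {χ : MulChar F ℂ}
  [Finite F] [Finite V] [Finite V'] [Finite V'']

theorem Kx_char (i j : ℕ) : IsCharacter (Φ.G × Φ'.G) fun p => Kx χ Φ Φ' i j p.1 p.2 := by
  let ρ : Φ.G × Φ'.G →* ((V × V') ≃ₗ[F] V × V') :=
    { toFun p := p.1.1.prodCongr p.2.1
      map_one' := LinearEquiv.ext fun _ => rfl
      map_mul' _ _ := LinearEquiv.ext fun _ => rfl }
  have h := dt_char (d := (finrank F V + finrank F V') / 2) χ ρ (Cor Φ Φ' i j).toFinite.toFinset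
    (fun U hU => by have := ((Set.Finite.mem_toFinset _).1 hU).1.d; omega)
    fun g _ hU => (Set.Finite.mem_toFinset _).2 (act_mem ((Set.Finite.mem_toFinset _).1 hU) g.1 g.2)
  exact h

theorem Kx_conj (i j : ℕ) (g x : Φ.G) (g' x' : Φ'.G) :
    Kx χ Φ Φ' i j (x * g * x⁻¹) (x' * g' * x'⁻¹) = Kx χ Φ Φ' i j g g' :=
  gen_isClassFunction (gen_of_char (Kx_char i j)) (g, g') (x, x')

theorem Kx_real (hχ : Qd o χ) (i j : ℕ) (g : Φ.G) (g' : Φ'.G) : conj (Kx χ Φ Φ' i j g g') = Kx χ Φ Φ' i j g g' := by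
  simp only [Kx, wt, map_sum, hχ.conj]

theorem Kx_inv (hχ : Qd o χ) (i j : ℕ) (g : Φ.G) (g' : Φ'.G) : Kx χ Φ Φ' i j g⁻¹ g'⁻¹ = Kx χ Φ Φ' i j g g' :=
  (gen_apply_inv (gen_of_char (Kx_char (Φ := Φ) (Φ' := Φ') i j)) (g, g')).trans (Kx_real hχ i j g g')

theorem opx_cls (i j : ℕ) (f : Φ'.G → ℂ) : IsClassFunction Φ.G (opx χ Φ Φ' i j f) := fun g x => by
  have := fun g' : Φ'.G => Kx_conj (χ := χ) i j g x g' 1
  simp only [one_mul, inv_one, mul_one] at this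
  simp only [opx_apply, this]

theorem opx_gen (i j : ℕ) {f : Φ'.G → ℂ} (hf : IsGeneralizedCharacter Φ'.G f) :
    IsGeneralizedCharacter Φ.G (opx χ Φ Φ' i j f) := gen_kernel (gen_of_char (Kx_char i j)) hf

theorem opx_adj (hχ : Qd o χ) (i j : ℕ) (f : Φ'.G → ℂ) (φ : Φ.G → ℂ) :
    classInner (opx χ Φ Φ' i j f) φ = classInner f (opx χ Φ' Φ j i φ) := by
  simp only [classInner, opx_apply, Nat.card_eq_fintype_card, Finset.mul_sum, Finset.sum_mul, map_sum, map_mul, map_inv₀,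
    map_natCast, Kx_real hχ, Kx_sw (Φ := Φ') (Φ' := Φ)]
  rw [Finset.sum_comm]
  exact Finset.sum_congr rfl fun _ _ => Finset.sum_congr rfl fun _ _ => by ring

theorem opx_empty {i j : ℕ} (h : ¬ (Cor Φ Φ' i j).Nonempty) (f : Φ'.G → ℂ) : opx χ Φ Φ' i j f = 0 := by
  funext g
  simp [opx_apply, Kx, Set.not_nonempty_iff_eq_empty.1 h]

theorem opx_zero (hχ : Qd o χ) : opx χ Φ Φ' 0 0 = op Φ Φ' 0 0 := by
  rw [← opx_one]
  suffices h : ∀ g g', Kx χ Φ Φ' 0 0 g g' = Kx 1 Φ Φ' 0 0 g g' from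
    LinearMap.ext fun f => funext fun g => by simp only [opx_apply, h]
  refine fun g g' => Finset.sum_congr rfl fun Λ h => ?_
  rw [Set.Finite.mem_toFinset] at h
  by_cases e : act g.1 g'.1 Λ = Λ
  · rw [wt_one e, wt_lag hχ h.1 e, eq_bot h.2.1, eq_bot h.2.2, dt_bot, dt_bot, map_one, mul_one]
  · rw [wt_of_not e, wt_of_not e]

/-- transport along an isometry -/
theorem opx_iso (hχ : Qd o χ) {f : Φ'.G → ℂ} (hf : IsClassFunction Φ'.G f) {Λ : Submodule F (V × V')}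
    (h : Λ ∈ Cor Φ Φ' 0 0) {g : Φ.G} {g' : Φ'.G} (hg : act g.1 g'.1 Λ = Λ) : opx χ Φ Φ' 0 0 f g = f g' := by
  rw [opx_zero hχ, op_iso hf h hg]

theorem opx_id (hχ : Qd o χ) {f : Φ.G → ℂ} (hf : IsClassFunction Φ.G f) : opx χ Φ Φ 0 0 f = f := by
  rw [opx_zero hχ, op_id hf]

/-- the weighted sum over the elements which fix `Λ` together with `g` -/
noncomputable def svx (χ : MulChar F ℂ) (Λ : Submodule F (V × V')) (g : Φ.G) (f : Φ'.G → ℂ) : ℂ :=
  ∑ g', wt χ g.1 g'.1 Λ * f g'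

theorem opx_svx (i j : ℕ) (f : Φ'.G → ℂ) (g : Φ.G) :
    opx χ Φ Φ' i j f g = (Fintype.card Φ'.G : ℂ)⁻¹ * ∑ Λ ∈ (Cor Φ Φ' i j).toFinite.toFinset, svx χ Λ g f := by
  simp only [opx_apply, svx, Kx, Finset.sum_mul]
  rw [Finset.sum_comm]

theorem svx_act {f : Φ'.G → ℂ} (hf : IsClassFunction Φ'.G f) (Λ : Submodule F (V × V')) (g : Φ.G) (y : Φ'.G) :
    svx χ (act 1 y.1 Λ) g f = svx χ Λ g f := by
  refine (Fintype.sum_equiv (MulAut.conj y).toEquiv _ _ fun g' => ?_).symm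
  rw [← wt_act g.1 1 g'.1 y.1, ← hf g' y, one_mul, inv_one, mul_one]
  rfl

theorem svx_fib {i j : ℕ} {f : Φ'.G → ℂ} (hf : IsClassFunction Φ'.G f) {Λ : Submodule F (V × V')} (h : Λ ∈ Cor Φ Φ' i j)
    (g : Φ.G) (T : Finset (Submodule F (V × V'))) (hT : ∀ t, t ∈ T ↔ t ∈ Cor Φ Φ' i j ∧ lf t = lf Λ) :
    Nat.card {y : Φ'.G // act 1 y.1 Λ = Λ} * ∑ t ∈ T, svx χ t g f = Fintype.card Φ'.G * svx χ Λ g f := by
  rw [← sum_orbit (fun (y : Φ'.G) t => act 1 y.1 t) act_one (fun y y' t => by rw [← act_mul]; rfl) T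
    (fun y => (hT _).2 ⟨act_mem h 1 y, lf_act_one _ _⟩) fun t ht => one h.1 ((hT t).1 ht).1.1 ((hT t).1 ht).2.symm]
  simp only [svx_act hf, Finset.sum_const, Finset.card_univ, nsmul_eq_mul]

/-- **the value of the twisted restriction** -/
theorem opx_res {j : ℕ} {f : Φ'.G → ℂ} (hf : IsClassFunction Φ'.G f) {Λ : Submodule F (V × V')} (h : Λ ∈ Cor Φ Φ' 0 j)
    (g : Φ.G) : Nat.card {y : Φ'.G // act 1 y.1 Λ = Λ} * opx χ Φ Φ' 0 j f g = svx χ Λ g f := by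
  rw [opx_svx, mul_left_comm, svx_fib hf h g _ fun t => by
    rw [Set.Finite.mem_toFinset]
    exact ⟨fun ht => ⟨ht, (eq_bot ht.2.1).trans (eq_bot h.2.1).symm⟩, fun ht => ht.1⟩,
    inv_mul_cancel_left₀ (Nat.cast_ne_zero.2 Fintype.card_ne_zero)]

theorem svx_eq {Λ : Submodule F (V × V')} (h : Lag Φ Φ' Λ) (h0 : rt Λ = ⊥) {g : Φ.G} {g' : Φ'.G}
    (hg : act g.1 g'.1 Λ = Λ) (f : Φ'.G → ℂ) : svx χ Λ g f = wt χ g.1 g'.1 Λ * f g' :=
  Finset.sum_eq_single_of_mem g' (Finset.mem_univ _) fun y _ hy => by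
    rw [wt_of_not fun e => hy (Subtype.ext (red_unique h h0 e hg)), zero_mul]

/-- **the value of the twisted induction** -/
theorem opx_ind (hχ : Qd o χ) {i : ℕ} {f : Φ'.G → ℂ} (hf : IsClassFunction Φ'.G f) (g : Φ.G) (T : Finset (Submodule F V))
    (L : Submodule F V → Submodule F (V × V')) (ρ : Submodule F V → Φ'.G)
    (h1 : ∀ X ∈ T, L X ∈ Cor Φ Φ' i 0 ∧ lf (L X) = X ∧ act g.1 (ρ X).1 (L X) = L X)
    (h2 : ∀ X, Φ.TS X → finrank F X = i → X.map (g.1 : V →ₗ[F] V) = X → X ∈ T) :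
    opx χ Φ Φ' i 0 f g = ∑ X ∈ T, χ (dt (g.1 : V →ₗ[F] V) X) * f (ρ X) := by
  classical
  have h0 : ∀ Λ ∈ (Cor Φ Φ' i 0).toFinite.toFinset, svx χ Λ g f ≠ 0 → lf Λ ∈ T := fun Λ hΛ hne => by
    obtain ⟨y, -, hy⟩ := Finset.exists_ne_zero_of_sum_ne_zero hne
    rw [Set.Finite.mem_toFinset] at hΛ
    exact h2 _ hΛ.1.ts_lf hΛ.2.1 (by rw [← lf_act g.1 y.1, fix_of_wt (left_ne_zero_of_mul hy)])
  have h5 : ∀ Λ ∈ (Cor Φ Φ' i 0).toFinite.toFinset.filter fun Λ => lf Λ ∈ T, lf Λ ∈ T := fun Λ h => (Finset.mem_filter.1 h).2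
  rw [opx_svx, ← Finset.sum_filter_of_ne h0, ← Finset.sum_fiberwise_of_maps_to h5, Finset.mul_sum]
  refine Finset.sum_congr rfl fun X hX => ?_
  obtain ⟨a1, a2, a3⟩ := h1 X hX
  have h3 := svx_fib (χ := χ) hf a1 g
    (((Cor Φ Φ' i 0).toFinite.toFinset.filter fun Λ => lf Λ ∈ T).filter fun Λ => lf Λ = X) fun t => by
      simp only [Finset.mem_filter, Set.Finite.mem_toFinset, a2]
      exact ⟨fun h => ⟨h.1.1, h.2⟩, fun h => ⟨⟨h.1, h.2 ▸ hX⟩, h.2⟩⟩
  have h4 : Nat.card {y : Φ'.G // act 1 y.1 (L X) = L X} = 1 :=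
    Nat.card_eq_one_iff_exists.2 ⟨⟨1, act_one _⟩, fun y => Subtype.ext (Subtype.ext
      (red_unique a1.1 (eq_bot a1.2.2) y.2 (act_one _)))⟩
  rw [h4, Nat.cast_one, one_mul] at h3
  rw [h3, inv_mul_cancel_left₀ (Nat.cast_ne_zero.2 Fintype.card_ne_zero), svx_eq a1.1 (eq_bot a1.2.2) a3,
    wt_lag hχ a1.1 a3, a2, eq_bot a1.2.2, dt_bot, map_one, mul_one]

end Cfsg.Agent.PQ.Mk
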