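import Cfsg.Agent.PQ.Mk.TwD

/-!
# PQ: the Mackey formula and the commutation rules for the twisted operators `opx` (helper43)

`wt_cp`, `wt_lag`, `Kx_sw`, `mackeyx`, `opx_mul`, `opx_comm`, `opx_comm'`, `opx_iso_left`, `opx_iso_right`, `opx_one`.
-/

set_option autoImplicit false
set_option linter.unusedSectionVars false
set_option maxHeartbeats 400000

namespace Cfsg.Agent.PQ.Mk

open Module
open scoped ComplexConjugate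

theorem sum_fib {α γ : Type} [Fintype γ] (T : Finset α) (P : α → Prop) (c : α → γ) (w : α → ℂ) (W : γ → ℂ)
    (h1 : ∀ t ∈ T, P t → w t = W (c t)) (h0 : ∀ t ∈ T, ¬ P t → w t = 0) :
    ∑ t ∈ T, w t = ∑ y, W y * {t | (t ∈ T ∧ c t = y) ∧ P t}.ncard := by
  classical
  rw [← Finset.sum_filter_of_ne (p := P) fun t ht h => by_contra fun hp => h (h0 t ht hp),
    ← Finset.sum_fiberwise_of_maps_to (g := c) fun _ _ => Finset.mem_univ _]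
  refine Finset.sum_congr rfl fun y _ => ?_
  rw [Finset.sum_congr rfl (g := fun _ => W y) fun t ht => by
    simp only [Finset.mem_filter] at ht
    rw [h1 t ht.1.1 ht.1.2, ht.2], Finset.sum_const, nsmul_eq_mul, mul_comm, ← Set.ncard_coe_finset]
  congr 3
  ext t
  simp only [Finset.coe_filter, Finset.mem_filter, Set.mem_ofPred_eq]
  tauto

variable {o : Bool} {F V V' V'' V₀ : Type} [Field F] [AddCommGroup V] [Module F V] [AddCommGroup V'] [Module F V']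
  [AddCommGroup V''] [Module F V''] [AddCommGroup V₀] [Module F V₀] {Φ : Fm o F V} {Φ' : Fm o F V'} {Φ'' : Fm o F V''}
  {Φ₀ : Fm o F V₀} {χ : MulChar F ℂ}

theorem Qd.conj (hχ : Qd o χ) (x : F) : conj (χ x) = χ x := by
  by_cases h : x = 0
  · rw [h, MulChar.map_zero, map_zero]
  · rcases mul_self_eq_one_iff.1 (hχ.sq x h) with h | h <;> simp [h]

section fd

variable [FiniteDimensional F V] [FiniteDimensional F V'] [FiniteDimensional F V'']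

theorem wt_of_not {g : V ≃ₗ[F] V} {g' : V' ≃ₗ[F] V'} {Λ : Submodule F (V × V')} (h : act g g' Λ ≠ Λ) : wt χ g g' Λ = 0 := by
  rw [wt, dt_of_not (mt act_iff.1 h), MulChar.map_zero]

theorem fix_of_wt {g : V ≃ₗ[F] V} {g' : V' ≃ₗ[F] V'} {Λ : Submodule F (V × V')} (h : wt χ g g' Λ ≠ 0) : act g g' Λ = Λ :=
  by_contra fun h' => h (wt_of_not h')

theorem wt_one {g : V ≃ₗ[F] V} {g' : V' ≃ₗ[F] V'} {Λ : Submodule F (V × V')} (h : act g g' Λ = Λ) : wt 1 g g' Λ = 1 :=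
  MulChar.one_apply (dt_ne_zero (act_iff.2 h)).isUnit

theorem wt_sq (hχ : Qd o χ) {g : V ≃ₗ[F] V} {g' : V' ≃ₗ[F] V'} {Λ : Submodule F (V × V')} (h : act g g' Λ = Λ) :
    wt χ g g' Λ * wt χ g g' Λ = 1 := hχ.sq _ (dt_ne_zero (act_iff.2 h))

theorem wt_cp (hχ : Qd o χ) {Λ : Submodule F (V × V'')} {Λ' : Submodule F (V'' × V')} (h : Lag Φ Φ'' Λ)
    (h' : Lag Φ'' Φ' Λ') {g : V ≃ₗ[F] V} {x : Φ''.G} {g' : V' ≃ₗ[F] V'} (hg : act g x.1 Λ = Λ)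
    (hg' : act x.1 g' Λ' = Λ') : wt χ g x.1 Λ * wt χ x.1 g' Λ' = wt χ g g' (cp Λ Λ') := by
  rw [wt, wt, ← map_mul, dt_cp h h' hg hg', map_mul, map_mul, hχ.dt, mul_one, pow_two, map_mul,
    hχ.sq _ (dt_ne_zero (U := rt Λ ⊓ lf Λ') fun u hu => ⟨inv_rt hg u hu.1, inv_lf hg' u hu.2⟩), mul_one, wt]

theorem wt_lag (hχ : Qd o χ) {Λ : Submodule F (V × V')} (h : Lag Φ Φ' Λ) {g : V ≃ₗ[F] V} {g' : Φ'.G}
    (hg : act g g'.1 Λ = Λ) :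
    wt χ g g'.1 Λ = χ (dt (g : V →ₗ[F] V) (lf Λ)) * χ (dt (g'.1 : V' →ₗ[F] V') (rt Λ)) := by
  rw [wt, dt_lag h hg, map_mul, map_mul, hχ.dt, mul_one]

theorem wt_sw (g : V ≃ₗ[F] V) (g' : V' ≃ₗ[F] V') (Λ : Submodule F (V × V')) : wt χ g' g (sw Λ) = wt χ g g' Λ := by
  by_cases h : act g g' Λ = Λ
  · rw [wt, wt, dt_inj (f' := pm g' g) (LinearEquiv.prodComm F V V' : V × V' →ₗ[F] V' × V) (act_iff.2 h) (fun _ _ => rfl)
      fun x _ hx => (LinearEquiv.map_eq_zero_iff _).1 hx]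
    congr 2
    ext x
    exact ⟨fun hx => ⟨_, hx, rfl⟩, fun ⟨y, hy, e⟩ => e ▸ hy⟩
  · rw [wt_of_not h, wt_of_not fun e => h (by rw [← sw_sw (act g g' Λ), sw_act, e, sw_sw])]

theorem wt_act (g x : V ≃ₗ[F] V) (g' x' : V' ≃ₗ[F] V') (Λ : Submodule F (V × V')) :
    wt χ (x * g * x⁻¹) (x' * g' * x'⁻¹) (act x x' Λ) = wt χ g g' Λ := by
  have e : act (x * g * x⁻¹) (x' * g' * x'⁻¹) (act x x' Λ) = act x x' (act g g' Λ) := by
    rw [← act_mul, ← act_mul, inv_mul_cancel_right, inv_mul_cancel_right]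
  by_cases h : act g g' Λ = Λ
  · rw [wt, wt, dt_inj (f' := pm (x * g * x⁻¹) (x' * g' * x'⁻¹)) (pm x x') (act_iff.2 h) (fun y _ => by simp)
      fun y _ hy => (LinearEquiv.map_eq_zero_iff _).1 hy]
    rfl
  · refine (wt_of_not fun e' => h ?_).trans (wt_of_not h).symm
    have h2 := congrArg (act x⁻¹ x'⁻¹) (e.symm.trans e')
    rwa [← act_mul x⁻¹ x, ← act_mul x⁻¹ x, inv_mul_cancel, inv_mul_cancel, act_one, act_one] at h2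

end fd

variable [Finite F] [Finite V] [Finite V'] [Finite V''] [Finite V₀]

theorem opx_apply (i j : ℕ) (f : Φ'.G → ℂ) (g : Φ.G) :
    opx χ Φ Φ' i j f g = (Fintype.card Φ'.G : ℂ)⁻¹ * ∑ g', Kx χ Φ Φ' i j g g' * f g' := rfl

theorem Kx_one (i j : ℕ) (g : Φ.G) (g' : Φ'.G) : Kx 1 Φ Φ' i j g g' = K Φ Φ' i j g g' := by
  rw [Kx, sum_fib _ (fun Λ => act g.1 g'.1 Λ = Λ) (fun _ => ()) _ (fun _ => 1) (fun _ _ => wt_one) fun _ _ => wt_of_not]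
  simp [K]

theorem opx_one (i j : ℕ) : opx 1 Φ Φ' i j = op Φ Φ' i j :=
  LinearMap.ext fun f => funext fun g => by simp only [opx_apply, op_apply, Kx_one]

/-- symmetry of the kernel -/
theorem Kx_sw (i j : ℕ) (g : Φ.G) (g' : Φ'.G) : Kx χ Φ Φ' i j g g' = Kx χ Φ' Φ j i g' g :=
  Finset.sum_bij' (fun Λ _ => sw Λ) (fun Λ _ => sw Λ)
    (fun _ h => (Set.Finite.mem_toFinset _).2 (sw_mem ((Set.Finite.mem_toFinset _).1 h)))
    (fun _ h => (Set.Finite.mem_toFinset _).2 (sw_mem ((Set.Finite.mem_toFinset _).1 h))) (fun _ _ => rfl) (fun _ _ => rfl)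
    fun Λ _ => (wt_sw _ _ Λ).symm

theorem ker_compx [Fintype (Submodule F (V × V'))] (hχ : Qd o χ) {β : Type} {i j l m : ℕ} (g : Φ.G) (g' : Φ'.G) (S : Set β)
    (π : Submodule F (V × V'') → Submodule F (V'' × V') → β) (τ : β → β) (ω : β → Submodule F (V × V'))
    (hω : ∀ s t, ω (π s t) = cp s t)
    (hπ : ∀ (h : Φ''.G) s t, π (act 1 h.1 s) (act h.1 1 t) = π s t) (hτ : ∀ s t, π (act g.1 1 s) (act 1 g'.1 t) = τ (π s t))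
    (hS : ∀ s ∈ Cor Φ Φ'' i j, ∀ t ∈ Cor Φ'' Φ' l m, π s t ∈ S)
    (on : ∀ b ∈ S, ∃ s ∈ Cor Φ Φ'' i j, ∃ t ∈ Cor Φ'' Φ' l m, π s t = b)
    (fib : ∀ s ∈ Cor Φ Φ'' i j, ∀ t ∈ Cor Φ'' Φ' l m, ∀ s' ∈ Cor Φ Φ'' i j, ∀ t' ∈ Cor Φ'' Φ' l m, π s t = π s' t' →
      ∃ h : Φ''.G, act 1 h.1 s = s' ∧ act h.1 1 t = t') :
    ∑ h : Φ''.G, Kx χ Φ Φ'' i j g h * Kx χ Φ'' Φ' l m h g' =
      Fintype.card Φ''.G * ∑ Λ, wt χ g.1 g'.1 Λ * {b | (b ∈ S ∧ ω b = Λ) ∧ τ b = b}.ncard := by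
  have h1 : ∀ h : Φ''.G, Kx χ Φ Φ'' i j g h * Kx χ Φ'' Φ' l m h g' = ∑ Λ, wt χ g.1 g'.1 Λ *
      {t | t ∈ {t ∈ Cor Φ Φ'' i j ×ˢ Cor Φ'' Φ' l m | cp t.1 t.2 = Λ} ∧
        (act 1 h.1 (act g.1 1 t.1), act h.1 1 (act 1 g'.1 t.2)) = t}.ncard := fun h => by
    rw [Kx, Kx, Finset.sum_mul_sum, ← Finset.sum_product', sum_fib _ (fun t => act g.1 h.1 t.1 = t.1 ∧ act h.1 g'.1 t.2 = t.2)
      (fun t => cp t.1 t.2) _ (wt χ g.1 g'.1) (fun t ht hp => ?_) fun t _ hp => ?_]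
    · refine Finset.sum_congr rfl fun Λ _ => ?_
      congr 3
      ext t
      simp only [← act_mul, one_mul, mul_one, Set.mem_prod, Set.mem_ofPred_eq, Prod.ext_iff, Finset.mem_product,
        Set.Finite.mem_toFinset]
    · simp only [Finset.mem_product, Set.Finite.mem_toFinset] at ht
      exact wt_cp hχ ht.1.1 ht.2.1 hp.1 hp.2
    · rcases not_and_or.1 hp with hp | hp
      · rw [wt_of_not hp, zero_mul]
      · rw [wt_of_not hp, mul_zero]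
  simp only [h1]
  rw [Finset.sum_comm, Finset.mul_sum]
  refine Finset.sum_congr rfl fun Λ _ => ?_
  by_cases h0 : wt χ g.1 g'.1 Λ = 0
  · simp [h0]
  rw [← Finset.mul_sum, mul_left_comm, ← Nat.cast_sum, ← Nat.cast_mul]
  refine congrArg _ (congrArg _ (burn
    (fun (h : Φ''.G) (t : Submodule F (V × V'') × Submodule F (V'' × V')) => (act 1 h.1 t.1, act h.1 1 t.2))
    (fun h h' t => by rw [← act_mul, ← act_mul]; rfl) _ {b | b ∈ S ∧ ω b = Λ} (fun t => π t.1 t.2)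
    (fun t => (act g.1 1 t.1, act 1 g'.1 t.2)) τ
    (fun h t ht => ⟨⟨act_mem ht.1.1 1 h, act_mem ht.1.2 h 1⟩, (cp_act _ _ _ _ _).trans ((act_one _).trans ht.2)⟩)
    (fun t ht => ⟨⟨act_mem ht.1.1 g 1, act_mem ht.1.2 1 g'⟩,
      (cp_act _ _ _ _ _).trans ((congrArg _ ht.2).trans (fix_of_wt h0))⟩)
    (fun h t _ => hπ h _ _) (fun t _ => hτ _ _) (fun t ht => ⟨hS _ ht.1.1 _ ht.1.2, (hω _ _).trans ht.2⟩) (fun b hb => ?_)
    fun t ht t' ht' e => ?_))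
  · obtain ⟨s, hs, t, ht, e⟩ := on b hb.1
    exact ⟨(s, t), ⟨⟨hs, ht⟩, by rw [← hω, e, hb.2]⟩, e⟩
  · obtain ⟨h, h1, h2⟩ := fib _ ht.1.1 _ ht.1.2 _ ht'.1.1 _ ht'.1.2 e
    exact ⟨h, Prod.ext h1 h2⟩

theorem opx_opx {i j l m : ℕ} (κ : Φ.G → Φ'.G → ℂ)
    (h : ∀ g g', ∑ h : Φ''.G, Kx χ Φ Φ'' i j g h * Kx χ Φ'' Φ' l m h g' = Fintype.card Φ''.G * κ g g') (f : Φ'.G → ℂ)
    (g : Φ.G) : opx χ Φ Φ'' i j (opx χ Φ'' Φ' l m f) g = (Fintype.card Φ'.G : ℂ)⁻¹ * ∑ g', κ g g' * f g' := by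
  have h0 : (Fintype.card Φ''.G : ℂ) ≠ 0 := Nat.cast_ne_zero.2 Fintype.card_ne_zero
  simp only [opx_apply, Finset.mul_sum]
  rw [Finset.sum_comm]
  refine Finset.sum_congr rfl fun g' _ => ?_
  rw [(eq_inv_mul_iff_mul_eq₀ h0).2 (h g g').symm, Finset.mul_sum, Finset.sum_mul, Finset.mul_sum]
  exact Finset.sum_congr rfl fun h _ => by ring

open Classical in
theorem sum_cor [Fintype (Submodule F (V × V'))] (i j : ℕ) (w : Submodule F (V × V') → ℂ) :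
    ∑ Λ ∈ (Cor Φ Φ' i j).toFinite.toFinset, w Λ = ∑ Λ, if Λ ∈ Cor Φ Φ' i j then w Λ else 0 := by
  rw [← Finset.sum_filter]
  exact Finset.sum_congr (by ext; simp) fun _ _ => rfl

theorem ker_mackeyx (hχ : Qd o χ) {k l : ℕ} (h₁ : (Cor Φ Φ'' 0 k).Nonempty) (h₂ : (Cor Φ'' Φ' l 0).Nonempty) (g : Φ.G)
    (g' : Φ'.G) : ∑ h : Φ''.G, Kx χ Φ Φ'' 0 k g h * Kx χ Φ'' Φ' l 0 h g' =
      Fintype.card Φ''.G * ∑ r ∈ Finset.range (min k l + 1), ((r : ℂ) + 1) * Kx χ Φ Φ' (l - r) (k - r) g g' := by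
  classical
  have := Fintype.ofFinite (Submodule F (V × V'))
  obtain ⟨Λ₁, h₁⟩ := h₁
  obtain ⟨Λ₂, h₂⟩ := h₂
  have t₁ := h₁.1.type
  have t₂ := h₂.1.type
  rw [h₁.2.1, h₁.2.2] at t₁
  rw [h₂.2.1, h₂.2.2] at t₂
  rw [ker_compx hχ g g' {b : Submodule F (V × V') × ℕ | Lag Φ Φ' b.1 ∧ finrank F (lf b.1) + b.2 ≤ l}
    (fun s t => (cp s t, finrank F ↥(rt s ⊓ lf t))) (fun b => (act g.1 g'.1 b.1, b.2)) Prod.fst (fun _ _ => rfl)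
    (fun h s t => by
      rw [cp_act, act_one, rt_act, lf_act, ← Submodule.map_inf _ h.1.injective, LinearEquiv.finrank_map_eq])
    (fun s t => by rw [cp_act, rt_act_one, lf_act_one])
    (fun s hs t ht => ⟨hs.1.cp ht.1, ht.2.1 ▸ bound t (eq_bot hs.2.1)⟩)
    (fun b hb => by
      obtain ⟨x, x', e1, e2⟩ := onto hb.1 h₁.1 h₂.1 (eq_bot h₁.2.1) (eq_bot h₂.2.2) (h₂.2.1.symm ▸ hb.2)
      exact ⟨Λ₁, h₁, _, act_mem h₂ x x', Prod.ext e1 e2⟩)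
    fun s hs t ht s' hs' t' ht' e => pair hs.1 hs'.1 ht.1 ht'.1 ((eq_bot hs.2.1).trans (eq_bot hs'.2.1).symm)
      ((eq_bot ht.2.2).trans (eq_bot ht'.2.2).symm) (congrArg Prod.fst e) (congrArg Prod.snd e)]
  simp only [Kx, sum_cor, Finset.mul_sum (s := Finset.univ)]
  rw [Finset.sum_comm, Finset.mul_sum]
  refine Finset.sum_congr rfl fun Λ _ => congrArg _ ?_
  by_cases h0 : wt χ g.1 g'.1 Λ = 0
  · simp [h0]
  have h1 := fix_of_wt h0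
  by_cases h2 : Lag Φ Φ' Λ ∧ finrank F (lf Λ) ≤ l
  · have t₃ := h2.1.type
    rw [Finset.sum_eq_single_of_mem (l - finrank F (lf Λ)) (Finset.mem_range.2 (by omega)) fun r hr hr' => by
      rw [Finset.mem_range] at hr
      rw [if_neg fun h => hr' (by have := h.2.1; omega), mul_zero], if_pos ⟨h2.1, by omega, by omega⟩, mul_comm,
      ← Nat.cast_succ, ← Finset.card_range (Nat.succ _), ← Set.ncard_coe_finset]
    congr 2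
    refine Set.ncard_congr (fun b _ => b.2) (fun b hb => ?_) (fun b b' hb hb' e => Prod.ext (hb.1.2.trans hb'.1.2.symm) e)
      fun r hr => ⟨(Λ, r), ⟨⟨⟨h2.1, ?_⟩, rfl⟩, Prod.ext h1 rfl⟩, rfl⟩
    · have := hb.1.1.2
      rw [hb.1.2] at this
      simp only [Finset.coe_range, Set.mem_Iio]
      omega
    · simp only [Finset.coe_range, Set.mem_Iio] at hr
      show finrank F (lf Λ) + r ≤ l
      omega
  · rw [Finset.sum_eq_zero fun r _ => by 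
      rw [if_neg fun h : Λ ∈ Cor Φ Φ' _ _ => h2 ⟨h.1, h.2.1.le.trans (Nat.sub_le _ _)⟩, mul_zero]]
    refine mul_eq_zero_of_right _ (Nat.cast_eq_zero.2 ((congrArg _ ?_).trans (Set.ncard_empty _)))
    exact Set.eq_empty_of_forall_notMem fun b hb => h2 (hb.1.2 ▸ ⟨hb.1.1.1, le_of_add_le_left hb.1.1.2⟩)

/-- **the twisted Mackey formula** -/
theorem mackeyx (hχ : Qd o χ) {k l : ℕ} (h₁ : (Cor Φ Φ'' 0 k).Nonempty) (h₂ : (Cor Φ'' Φ' l 0).Nonempty) (f : Φ'.G → ℂ) :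
    opx χ Φ Φ'' 0 k (opx χ Φ'' Φ' l 0 f) =
      ∑ r ∈ Finset.range (min k l + 1), ((r : ℂ) + 1) • opx χ Φ Φ' (l - r) (k - r) f := by
  funext g
  rw [opx_opx _ (ker_mackeyx hχ h₁ h₂), Finset.sum_apply]
  simp only [Pi.smul_apply, opx_apply, smul_eq_mul, Finset.mul_sum, Finset.sum_mul]
  rw [Finset.sum_comm]
  exact Finset.sum_congr rfl fun r _ => Finset.sum_congr rfl fun g' _ => by ring

/-- the weighted number of fixed flags `U ≤ lf Λ` -/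
noncomputable def flx (χ : MulChar F ℂ) (Φ : Fm o F V) (Φ' : Fm o F V') (i n m : ℕ) (g : Φ.G) (g' : Φ'.G) : ℂ :=
  ∑ Λ ∈ (Cor Φ Φ' n m).toFinite.toFinset, wt χ g.1 g'.1 Λ * sub i (lf Λ) g.1

theorem ker_flx (hχ : Qd o χ) {i : ℕ} (h₁ : (Cor Φ Φ'' i 0).Nonempty) (l m : ℕ) (g : Φ.G) (g' : Φ'.G) :
    ∑ h : Φ''.G, Kx χ Φ Φ'' i 0 g h * Kx χ Φ'' Φ' l m h g' = Fintype.card Φ''.G * flx χ Φ Φ' i (i + l) m g g' := by
  classical
  have := Fintype.ofFinite (Submodule F (V × V'))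
  obtain ⟨Λ₁, h₁⟩ := h₁
  have t₁ := h₁.1.type
  rw [h₁.2.1, h₁.2.2] at t₁
  rw [ker_compx hχ g g' {b : Submodule F V × Submodule F (V × V') |
      b.2 ∈ Cor Φ Φ' (i + l) m ∧ b.1 ≤ lf b.2 ∧ finrank F b.1 = i} (fun s t => (lf s, cp s t))
    (fun b => (b.1.map (g.1 : V →ₗ[F] V), act g.1 g'.1 b.2)) Prod.snd (fun _ _ => rfl)
    (fun h s t => by rw [cp_act, act_one, lf_act_one]) (fun s t => by rw [cp_act, lf_act]) (fun s hs t ht => ?_)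
    (fun b hb => ?_) fun s hs t ht s' hs' t' ht' e => ?_, flx, sum_cor]
  · refine congrArg _ (Finset.sum_congr rfl fun Λ _ => ?_)
    by_cases h0 : wt χ g.1 g'.1 Λ = 0
    · simp [h0]
    split_ifs with h
    · refine congrArg _ (congrArg _ ?_)
      exact Set.ncard_congr (fun b _ => b.1) (fun b hb => ⟨hb.1.2 ▸ hb.1.1.2.1, hb.1.1.2.2, congrArg Prod.fst hb.2⟩)
        (fun b b' hb hb' e => Prod.ext e (hb.1.2.trans hb'.1.2.symm)) fun U hU =>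
          ⟨(U, Λ), ⟨⟨⟨h, hU.1, hU.2.1⟩, rfl⟩, Prod.ext hU.2.2 (fix_of_wt h0)⟩, rfl⟩
    · refine mul_eq_zero_of_right _ (Nat.cast_eq_zero.2 ((congrArg _ ?_).trans (Set.ncard_empty _)))
      exact Set.eq_empty_of_forall_notMem fun b hb => h (hb.1.2 ▸ hb.1.1.1)
  · have t₂ := ht.1.type
    have t₃ := (hs.1.cp ht.1).type
    have e := rt_cp (eq_bot hs.2.2) t
    rw [e, ht.2.2] at t₃
    rw [ht.2.1, ht.2.2] at t₂
    exact ⟨⟨hs.1.cp ht.1, by show finrank F (lf (cp s t)) = _; omega, e ▸ ht.2.2⟩, fun v hv => ⟨0, hv, zero_mem _⟩, hs.2.1⟩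
  · obtain ⟨x, hx⟩ := h₁.1.ts_lf.trans (hb.1.1.ts_lf.mono hb.2.1) (h₁.2.1.trans hb.2.2.symm)
    have h2 := act_mem h₁ x 1
    have h3 : lf (act x.1 (1 : Φ''.G).1 Λ₁) = b.1 := by rw [lf_act, hx]
    obtain ⟨e1, e2⟩ := onto' hb.1.1 h2.1 (h3.le.trans hb.2.1)
    have h4 := h2.1.sw.cp hb.1.1
    have t₂ := h4.type
    have t₃ := hb.1.1.type
    rw [e2, hb.1.2.2] at t₂
    rw [hb.1.2.1, hb.1.2.2] at t₃
    exact ⟨_, h2, _, ⟨h4, by omega, e2 ▸ hb.1.2.2⟩, Prod.ext h3 e1⟩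
  · have e1 : cp s t = cp s' t' := congrArg Prod.snd e
    exact pair hs.1 hs'.1 ht.1 ht'.1 (congrArg Prod.fst e)
      (by rw [← rt_cp (eq_bot hs.2.2), e1, rt_cp (eq_bot hs'.2.2)]) e1
      (by rw [eq_bot hs.2.2, eq_bot hs'.2.2, bot_inf_eq, bot_inf_eq])

theorem opx_flx (hχ : Qd o χ) {i : ℕ} (h₁ : (Cor Φ Φ'' i 0).Nonempty) (l m : ℕ) (f : Φ'.G → ℂ) (g : Φ.G) :
    opx χ Φ Φ'' i 0 (opx χ Φ'' Φ' l m f) g = (Fintype.card Φ'.G : ℂ)⁻¹ * ∑ g', flx χ Φ Φ' i (i + l) m g g' * f g' :=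
  opx_opx _ (ker_flx hχ h₁ l m) f g

theorem flx_eq {i n m : ℕ} {g : Φ.G} {g' : Φ'.G}
    (h : ∀ Z : Submodule F V, finrank F Z = n → Z.map (g.1 : V →ₗ[F] V) = Z → sub i Z g.1 = 1) :
    flx χ Φ Φ' i n m g g' = Kx χ Φ Φ' n m g g' := by
  refine Finset.sum_congr rfl fun Λ hΛ => ?_
  by_cases h0 : wt χ g.1 g'.1 Λ = 0
  · rw [h0, zero_mul]
  · rw [h _ ((Set.Finite.mem_toFinset _).1 hΛ).2.1 (by rw [← lf_act g.1 g'.1, fix_of_wt h0]), Nat.cast_one, mul_one]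

theorem flx_self (i m : ℕ) (g : Φ.G) (g' : Φ'.G) : flx χ Φ Φ' i i m g g' = Kx χ Φ Φ' i m g g' :=
  flx_eq fun Z h1 h2 => Set.ncard_eq_one.2 ⟨Z, Set.eq_singleton_iff_unique_mem.2
    ⟨⟨le_rfl, h1, h2⟩, fun _ hU => Submodule.eq_of_le_of_finrank_eq hU.1 (hU.2.1.trans h1.symm)⟩⟩

theorem flx_zero (n m : ℕ) (g : Φ.G) (g' : Φ'.G) : flx χ Φ Φ' 0 n m g g' = Kx χ Φ Φ' n m g g' :=
  flx_eq fun _ _ _ => Set.ncard_eq_one.2 ⟨⊥, Set.eq_singleton_iff_unique_mem.2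
    ⟨⟨bot_le, finrank_bot _ _, Submodule.map_bot _⟩, fun _ hU => eq_bot hU.2.1⟩⟩

theorem flx_symm (i l m : ℕ) (g : Φ.G) (g' : Φ'.G) : flx χ Φ Φ' i (i + l) m g g' = flx χ Φ Φ' l (l + i) m g g' := by
  rw [flx, flx, add_comm l]
  refine Finset.sum_congr rfl fun Λ h => ?_
  rw [Set.Finite.mem_toFinset] at h
  by_cases h0 : wt χ g.1 g'.1 Λ = 0
  · rw [h0, zero_mul, zero_mul]
  have h1 : (lf Λ).map (g.1 : V →ₗ[F] V) = lf Λ := by rw [← lf_act g.1 g'.1, fix_of_wt h0]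
  rw [le_antisymm (sub_le h1 h.2.1) (sub_le h1 (h.2.1.trans (add_comm _ _)))]

/-- `h_i h_j* = opx i j` -/
theorem opx_mul (hχ : Qd o χ) {i : ℕ} (h₁ : (Cor Φ Φ'' i 0).Nonempty) (j : ℕ) (f : Φ'.G → ℂ) :
    opx χ Φ Φ'' i 0 (opx χ Φ'' Φ' 0 j f) = opx χ Φ Φ' i j f := by
  funext g
  simp only [opx_flx hχ h₁, add_zero, flx_self, opx_apply]

/-- `h_i h_l = h_l h_i` -/
theorem opx_comm (hχ : Qd o χ) {i l : ℕ} (h₁ : (Cor Φ Φ'' i 0).Nonempty) (h₂ : (Cor Φ Φ₀ l 0).Nonempty) (m : ℕ)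
    (f : Φ'.G → ℂ) : opx χ Φ Φ'' i 0 (opx χ Φ'' Φ' l m f) = opx χ Φ Φ₀ l 0 (opx χ Φ₀ Φ' i m f) := by
  funext g
  simp only [opx_flx hχ h₁, opx_flx hχ h₂, flx_symm i l]

theorem opx_flx' (hχ : Qd o χ) {i : ℕ} (h₁ : (Cor Φ' Φ'' i 0).Nonempty) (l m : ℕ) (f : Φ'.G → ℂ) (g : Φ.G) :
    opx χ Φ Φ'' m l (opx χ Φ'' Φ' 0 i f) g = (Fintype.card Φ'.G : ℂ)⁻¹ * ∑ g', flx χ Φ' Φ i (i + l) m g' g * f g' :=
  opx_opx (fun g g' => flx χ Φ' Φ i (i + l) m g' g) (fun g g' =>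
    (Finset.sum_congr rfl fun h _ => by rw [Kx_sw m, Kx_sw 0, mul_comm]).trans (ker_flx hχ h₁ l m g' g)) f g

/-- `h_l* h_i* = h_i* h_l*` -/
theorem opx_comm' (hχ : Qd o χ) {i l : ℕ} (h₁ : (Cor Φ' Φ'' i 0).Nonempty) (h₂ : (Cor Φ' Φ₀ l 0).Nonempty) (m : ℕ)
    (f : Φ'.G → ℂ) : opx χ Φ Φ'' m l (opx χ Φ'' Φ' 0 i f) = opx χ Φ Φ₀ m i (opx χ Φ₀ Φ' 0 l f) := by
  funext g
  simp only [opx_flx' hχ h₁, opx_flx' hχ h₂, flx_symm i l]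

theorem opx_iso_left (hχ : Qd o χ) (h₁ : (Cor Φ Φ'' 0 0).Nonempty) (l m : ℕ) (f : Φ'.G → ℂ) :
    opx χ Φ Φ'' 0 0 (opx χ Φ'' Φ' l m f) = opx χ Φ Φ' l m f := by
  funext g
  simp only [opx_flx hχ h₁, zero_add, flx_zero]
  rfl

theorem opx_iso_right (hχ : Qd o χ) (h₁ : (Cor Φ' Φ'' 0 0).Nonempty) (l m : ℕ) (f : Φ'.G → ℂ) :
    opx χ Φ Φ'' m l (opx χ Φ'' Φ' 0 0 f) = opx χ Φ Φ' m l f := by
  funext g
  simp only [opx_flx' hχ h₁, zero_add, flx_zero, Kx_sw l]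
  rfl

end Cfsg.Agent.PQ.Mk
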