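import Cfsg.Agent.PQ.Mk.Alg
import Cfsg.Agent.H200.DetSim

/-!
# PQ: the operators `op` twisted by a quadratic character of the determinant, definitions (helper43)

* `dt f U` : the determinant of `f` on `U` (`0` if `U` is not invariant); `dt_exact`, `dt_pp`, `dt_lag`, `dt_cp`;
* `Qd o χ` : `χ` is quadratic and trivial on the determinants of the isometries; `Qd.sp`, `Qd.one`;
* `wt χ g g' Λ`, `Kx χ Φ Φ' i j g g'`, `opx χ Φ Φ' i j`.
-/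

set_option autoImplicit false
set_option linter.unusedSectionVars false
set_option maxHeartbeats 400000

namespace Cfsg.Agent.PQ.Mk

open Module

section det

variable {F M N : Type} [Field F] [AddCommGroup M] [Module F M] [AddCommGroup N] [Module F N]

open Classical in
/-- the determinant of `f` on `U`, and `0` if `U` is not invariant -/
noncomputable def dt (f : M →ₗ[F] M) (U : Submodule F M) : F :=
  if h : ∀ x ∈ U, f x ∈ U then LinearMap.det (f.restrict h) else 0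

theorem dt_eq {f : M →ₗ[F] M} {U : Submodule F M} (h : ∀ x ∈ U, f x ∈ U) : dt f U = LinearMap.det (f.restrict h) :=
  dif_pos h

theorem dt_of_not {f : M →ₗ[F] M} {U : Submodule F M} (h : ¬ ∀ x ∈ U, f x ∈ U) : dt f U = 0 := dif_neg h

theorem dt_bot (f : M →ₗ[F] M) : dt f ⊥ = 1 := by
  rw [dt_eq fun x hx => by rw [(Submodule.mem_bot F).1 hx, map_zero]; exact zero_mem _]
  exact LinearMap.det_eq_one_of_subsingleton _

theorem dt_top (f : M →ₗ[F] M) : dt f ⊤ = LinearMap.det f := by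
  rw [dt_eq (f := f) (U := ⊤) fun _ _ => trivial, ← LinearMap.det_conj _ Submodule.topEquiv]
  rfl

theorem dt_mul {f g : M →ₗ[F] M} {U : Submodule F M} (hf : ∀ x ∈ U, f x ∈ U) (hg : ∀ x ∈ U, g x ∈ U) :
    dt (f * g) U = dt f U * dt g U := by
  rw [dt_eq hf, dt_eq hg, dt_eq (f := f * g) fun x hx => hf _ (hg x hx), ← map_mul]
  rfl

theorem dt_congr {f g : M →ₗ[F] M} {U : Submodule F M} (h : ∀ x ∈ U, f x = g x) : dt f U = dt g U := by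
  by_cases hf : ∀ x ∈ U, f x ∈ U
  · rw [dt_eq hf, dt_eq fun x hx => h x hx ▸ hf x hx]
    exact congrArg _ (LinearMap.ext fun x => Subtype.ext (h x x.2))
  · rw [dt_of_not hf, dt_of_not fun hg => hf fun x hx => (h x hx).symm ▸ hg x hx]

theorem dt_one (U : Submodule F M) : dt (1 : M →ₗ[F] M) U = 1 := by
  rw [dt_eq fun _ hx => hx]
  exact map_one LinearMap.det

theorem dt_inj {f : M →ₗ[F] M} {f' : N →ₗ[F] N} (π : M →ₗ[F] N) {U : Submodule F M} (hU : ∀ x ∈ U, f x ∈ U)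
    (h : ∀ x ∈ U, π (f x) = f' (π x)) (hi : ∀ x ∈ U, π x = 0 → x = 0) : dt f U = dt f' (U.map π) := by
  have h1 : ∀ y ∈ U.map π, f' y ∈ U.map π := by
    rintro _ ⟨x, hx, rfl⟩
    exact ⟨f x, hU x hx, h x hx⟩
  let e : U ≃ₗ[F] U.map π := LinearEquiv.ofBijective (π.submoduleMap U)
    ⟨(injective_iff_map_eq_zero _).2 fun x hx => Subtype.ext (hi x x.2 (congrArg Subtype.val hx)),
      π.submoduleMap_surjective U⟩
  rw [dt_eq hU, dt_eq h1, ← LinearMap.det_conj _ e]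
  refine congrArg _ (LinearMap.ext fun y => ?_)
  obtain ⟨x, rfl⟩ := e.surjective y
  simp only [LinearMap.comp_apply, LinearEquiv.coe_coe, LinearEquiv.symm_apply_apply]
  exact Subtype.ext (h x x.2)

variable [FiniteDimensional F M]

theorem det_exact {f : M →ₗ[F] M} {f' : N →ₗ[F] N} (π : M →ₗ[F] N) (hs : Function.Surjective π)
    (h : ∀ x, π (f x) = f' (π x)) : LinearMap.det f = dt f (LinearMap.ker π) * LinearMap.det f' := by
  have h1 : LinearMap.ker π ≤ (LinearMap.ker π).comap f := fun x hx => by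
    show π (f x) = 0
    rw [h, show π x = 0 from hx, map_zero]
  rw [LinearMap.det_eq_det_mul_det _ f h1, dt_eq h1, ← LinearMap.det_conj _ (π.quotKerEquivOfSurjective hs)]
  refine congrArg _ (congrArg _ (LinearMap.ext fun y => ?_))
  obtain ⟨x, rfl⟩ := hs y
  have : (π.quotKerEquivOfSurjective hs).symm (π x) = Submodule.Quotient.mk x := by
    rw [LinearEquiv.symm_apply_eq]; rfl
  simp only [LinearMap.comp_apply, LinearEquiv.coe_coe, this]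
  exact h x

/-- the determinant is multiplicative in exact sequences -/
theorem dt_exact {f : M →ₗ[F] M} {f' : N →ₗ[F] N} (π : M →ₗ[F] N) {U : Submodule F M} (hU : ∀ x ∈ U, f x ∈ U)
    (h : ∀ x ∈ U, π (f x) = f' (π x)) : dt f U = dt f (U ⊓ LinearMap.ker π) * dt f' (U.map π) := by
  have h1 : ∀ y ∈ U.map π, f' y ∈ U.map π := by
    rintro _ ⟨x, hx, rfl⟩
    exact ⟨f x, hU x hx, h x hx⟩
  have h2 := det_exact (f := f.restrict hU) (f' := f'.restrict h1) (π.submoduleMap U) (π.submoduleMap_surjective U)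
    fun x => Subtype.ext (h x x.2)
  have h3 := dt_inj (f := f.restrict hU) (f' := f) U.subtype (U := LinearMap.ker (π.submoduleMap U))
    (fun x hx => Subtype.ext ((h x x.2).trans (by rw [show π x = 0 from congrArg Subtype.val hx, map_zero]; rfl)))
    (fun _ _ => rfl) fun x _ hx => Subtype.ext hx
  have h4 : (LinearMap.ker (π.submoduleMap U)).map U.subtype = U ⊓ LinearMap.ker π := by
    ext x
    exact ⟨fun ⟨y, hy, e⟩ => e ▸ ⟨y.2, congrArg Subtype.val hy⟩, fun hx => ⟨⟨x, hx.1⟩, Subtype.ext hx.2, rfl⟩⟩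
  rw [dt_eq hU, dt_eq h1, h2, h3, h4]

theorem inv_iff {g : M ≃ₗ[F] M} {U : Submodule F M} : (∀ x ∈ U, (g : M →ₗ[F] M) x ∈ U) ↔ U.map (g : M →ₗ[F] M) = U :=
  ⟨fun h => Submodule.eq_of_le_of_finrank_eq (by rintro _ ⟨x, hx, rfl⟩; exact h x hx) (LinearEquiv.finrank_map_eq _ _),
    fun h x hx => h.le ⟨x, hx, rfl⟩⟩

theorem dt_mul_symm {g : M ≃ₗ[F] M} {U : Submodule F M} (h : ∀ x ∈ U, (g : M →ₗ[F] M) x ∈ U) :
    dt (g : M →ₗ[F] M) U * dt (g.symm : M →ₗ[F] M) U = 1 := by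
  rw [← dt_mul h fun x hx => ?_, dt_congr (g := 1) fun x _ => g.apply_symm_apply x, dt_one]
  obtain ⟨y, hy, rfl⟩ := (inv_iff.1 h).ge hx
  exact (g.symm_apply_apply y).symm ▸ hy

theorem dt_ne_zero {g : M ≃ₗ[F] M} {U : Submodule F M} (h : ∀ x ∈ U, (g : M →ₗ[F] M) x ∈ U) :
    dt (g : M →ₗ[F] M) U ≠ 0 := left_ne_zero_of_mul_eq_one (dt_mul_symm h)

theorem dt_prod [FiniteDimensional F N] {f : M →ₗ[F] M} {f' : N →ₗ[F] N} {U : Submodule F M} {U' : Submodule F N}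
    (h : ∀ x ∈ U, f x ∈ U) (h' : ∀ x ∈ U', f' x ∈ U') : dt (f.prodMap f') (U.prod U') = dt f U * dt f' U' := by
  have h1 := dt_exact (f := f.prodMap f') (f' := f') (LinearMap.snd F M N) (U := U.prod U')
    (fun x hx => ⟨h _ hx.1, h' _ hx.2⟩) fun _ _ => rfl
  have h2 := dt_inj (f := f.prodMap f') (f' := f) (LinearMap.fst F M N)
    (U := U.prod U' ⊓ LinearMap.ker (LinearMap.snd F M N))
    (fun x hx => ⟨⟨h _ hx.1.1, h' _ hx.1.2⟩, show f' x.2 = 0 by rw [show x.2 = 0 from hx.2, map_zero]⟩) (fun _ _ => rfl)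
    fun x hx h0 => Prod.ext h0 hx.2
  rw [h1, h2]
  congr 2
  · ext x
    exact ⟨fun ⟨y, hy, e⟩ => e ▸ hy.1.1, fun hx => ⟨(x, 0), ⟨⟨hx, zero_mem _⟩, rfl⟩, rfl⟩⟩
  · ext x
    exact ⟨fun ⟨y, hy, e⟩ => e ▸ hy.2, fun hx => ⟨(0, x), ⟨zero_mem _, hx⟩, rfl⟩⟩

end det

variable {o : Bool} {F V V' V'' : Type} [Field F] [AddCommGroup V] [Module F V] [AddCommGroup V'] [Module F V']
  [AddCommGroup V''] [Module F V''] {Φ : Fm o F V} {Φ' : Fm o F V'} {Φ'' : Fm o F V''}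

/-- the linear map of a pair of automorphisms -/
abbrev pm (g : V ≃ₗ[F] V) (g' : V' ≃ₗ[F] V') : V × V' →ₗ[F] V × V' := (g.prodCongr g' : V × V' →ₗ[F] V × V')

section fd

variable [FiniteDimensional F V] [FiniteDimensional F V'] [FiniteDimensional F V'']

theorem Fm.pp_inf (Φ : Fm o F V) (X Y : Submodule F V) : Φ.pp (X ⊓ Y) = Φ.pp X ⊔ Φ.pp Y := by
  rw [← Φ.pp_pp (Φ.pp X ⊔ Φ.pp Y), Φ.pp_sup, Φ.pp_pp, Φ.pp_pp]

theorem dt_pp (h : Φ.G) {Z : Submodule F V} (hZ : ∀ x ∈ Z, (h.1 : V →ₗ[F] V) x ∈ Z) :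
    dt (h.1 : V →ₗ[F] V) (Φ.pp Z) = LinearMap.det (h.1 : V →ₗ[F] V) * dt (h.1 : V →ₗ[F] V) Z := by
  have h1 : ∀ x ∈ Z, (h.1.symm : V →ₗ[F] V) x ∈ Z := fun x hx => by
    obtain ⟨y, hy, rfl⟩ := (inv_iff.1 hZ).ge hx
    exact (h.1.symm_apply_apply y).symm ▸ hy
  have h2 := det_exact (f := (h.1 : V →ₗ[F] V)) (f' := ((h.1.symm : V →ₗ[F] V).restrict h1).dualMap)
    (Z.dualRestrict ∘ₗ Φ.B.flip) (fun η => by
      obtain ⟨ξ, rfl⟩ := Subspace.dualRestrict_surjective η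
      exact ⟨Φ.rep ξ, LinearMap.ext fun z => Φ.B_rep ξ z⟩)
    fun x => LinearMap.ext fun z => by
      show Φ.B z (h.1 x) = Φ.B (h.1.symm z) x
      rw [← h.2.1 (h.1.symm z), h.1.apply_symm_apply]
  have h3 : LinearMap.ker (Z.dualRestrict ∘ₗ Φ.B.flip) = Φ.pp Z := by
    ext x
    exact ⟨fun hx n hn => LinearMap.congr_fun hx ⟨n, hn⟩, fun hx => LinearMap.ext fun z => hx z z.2⟩
  rw [h2, h3, LinearMap.det_dualMap, ← dt_eq h1, mul_assoc, mul_comm (dt _ Z), dt_mul_symm hZ, mul_one]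

theorem act_iff {g : V ≃ₗ[F] V} {g' : V' ≃ₗ[F] V'} {Λ : Submodule F (V × V')} :
    (∀ x ∈ Λ, pm g g' x ∈ Λ) ↔ act g g' Λ = Λ := inv_iff

theorem inv_lf {g : V ≃ₗ[F] V} {g' : V' ≃ₗ[F] V'} {Λ : Submodule F (V × V')} (h : act g g' Λ = Λ) :
    ∀ x ∈ lf Λ, (g : V →ₗ[F] V) x ∈ lf Λ := inv_iff.2 (by rw [← lf_act g g', h])

theorem inv_rt {g : V ≃ₗ[F] V} {g' : V' ≃ₗ[F] V'} {Λ : Submodule F (V × V')} (h : act g g' Λ = Λ) :
    ∀ x ∈ rt Λ, (g' : V' →ₗ[F] V') x ∈ rt Λ := inv_iff.2 (by rw [← rt_act g g', h])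

/-- the determinant on a correspondence -/
theorem dt_lag {Λ : Submodule F (V × V')} (h : Lag Φ Φ' Λ) {g : V ≃ₗ[F] V} {g' : Φ'.G} (hg : act g g'.1 Λ = Λ) :
    dt (pm g g'.1) Λ =
      dt (g : V →ₗ[F] V) (lf Λ) * dt (g'.1 : V' →ₗ[F] V') (rt Λ) * LinearMap.det (g'.1 : V' →ₗ[F] V') := by
  have h1 := act_iff.2 hg
  have h2 := dt_inj (f := pm g g'.1) (f' := (g : V →ₗ[F] V)) (LinearMap.fst F V V')
    (U := Λ ⊓ LinearMap.ker (LinearMap.snd F V V'))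
    (fun x hx => ⟨h1 x hx.1, show g'.1 x.2 = 0 by rw [show x.2 = 0 from hx.2, map_zero]⟩) (fun _ _ => rfl)
    fun x hx h0 => Prod.ext h0 hx.2
  have h3 : (Λ ⊓ LinearMap.ker (LinearMap.snd F V V')).map (LinearMap.fst F V V') = lf Λ := by
    ext x
    refine ⟨fun ⟨y, hy, e⟩ => ?_, fun hx => ⟨(x, 0), ⟨hx, rfl⟩, rfl⟩⟩
    rw [mem_lf, ← e, ← show y.2 = 0 from hy.2]
    exact hy.1
  rw [dt_exact (f' := (g'.1 : V' →ₗ[F] V')) (LinearMap.snd F V V') h1 fun _ _ => rfl, h.map_snd, dt_pp g' (inv_rt hg), h2, h3]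
  ring

/-- the determinant on a composition -/
theorem dt_cp {Λ : Submodule F (V × V'')} {Λ' : Submodule F (V'' × V')} (h : Lag Φ Φ'' Λ) (h' : Lag Φ'' Φ' Λ')
    {g : V ≃ₗ[F] V} {x : Φ''.G} {g' : V' ≃ₗ[F] V'} (hg : act g x.1 Λ = Λ) (hg' : act x.1 g' Λ' = Λ') :
    dt (pm g x.1) Λ * dt (pm x.1 g') Λ' = dt (pm g g') (cp Λ Λ') * dt (x.1 : V'' →ₗ[F] V'') (rt Λ ⊓ lf Λ') ^ 2 *
      LinearMap.det (x.1 : V'' →ₗ[F] V'') := by
  have h1 := act_iff.2 hg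
  have h2 := act_iff.2 hg'
  let f := (pm g x.1).prodMap (pm x.1 g')
  let π₁ : (V × V'') × (V'' × V') →ₗ[F] V'' := LinearMap.snd F V V'' ∘ₗ LinearMap.fst F _ _
  let π₂ : (V × V'') × (V'' × V') →ₗ[F] V'' := LinearMap.fst F V'' V' ∘ₗ LinearMap.snd F _ _
  let π₃ : (V × V'') × (V'' × V') →ₗ[F] V × V' := (LinearMap.fst F V V'').prodMap (LinearMap.snd F V'' V')
  have a1 : ∀ y ∈ Λ.prod Λ', f y ∈ Λ.prod Λ' := fun y hy => ⟨h1 _ hy.1, h2 _ hy.2⟩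
  have a2 : ∀ y, (π₁ - π₂) (f y) = (x.1 : V'' →ₗ[F] V'') ((π₁ - π₂) y) := fun y => (map_sub x.1 y.1.2 y.2.1).symm
  have a3 : ∀ y ∈ Λ.prod Λ' ⊓ LinearMap.ker (π₁ - π₂), f y ∈ Λ.prod Λ' ⊓ LinearMap.ker (π₁ - π₂) := fun y hy =>
    ⟨a1 y hy.1, (a2 y).trans (by rw [show (π₁ - π₂) y = 0 from hy.2, map_zero])⟩
  have a4 : ∀ y ∈ Λ.prod Λ' ⊓ LinearMap.ker (π₁ - π₂) ⊓ LinearMap.ker π₃,
      f y ∈ Λ.prod Λ' ⊓ LinearMap.ker (π₁ - π₂) ⊓ LinearMap.ker π₃ := fun y hy =>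
    ⟨a3 y hy.1, show pm g g' (π₃ y) = 0 by rw [show π₃ y = 0 from hy.2, map_zero]⟩
  have a5 : ∀ y ∈ Λ.prod Λ' ⊓ LinearMap.ker (π₁ - π₂) ⊓ LinearMap.ker π₃, y = ((0, π₁ y), (π₁ y, 0)) := fun y hy => by
    have b : (y.1.1, y.2.2) = (0, 0) := hy.2
    exact Prod.ext (Prod.ext (Prod.mk.inj b).1 rfl) (Prod.ext (sub_eq_zero.1 hy.1.2).symm (Prod.mk.inj b).2)
  have e1 : (Λ.prod Λ').map (π₁ - π₂) = Φ''.pp (rt Λ ⊓ lf Λ') := by
    rw [Φ''.pp_inf, ← h.map_snd, ← h'.map_fst]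
    refine le_antisymm ?_ (sup_le ?_ ?_)
    · rintro _ ⟨y, hy, rfl⟩
      exact sub_mem (Submodule.mem_sup_left ⟨y.1, hy.1, rfl⟩) (Submodule.mem_sup_right ⟨y.2, hy.2, rfl⟩)
    · rintro _ ⟨y, hy, rfl⟩
      exact ⟨(y, 0), ⟨hy, zero_mem _⟩, sub_zero _⟩
    · rintro _ ⟨y, hy, rfl⟩
      exact ⟨(0, -y), ⟨zero_mem _, neg_mem hy⟩, (zero_sub _).trans (neg_neg _)⟩
  have e2 : (Λ.prod Λ' ⊓ LinearMap.ker (π₁ - π₂)).map π₃ = cp Λ Λ' := by
    ext z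
    refine ⟨fun ⟨y, hy, e⟩ => e ▸ ⟨y.1.2, hy.1.1, ?_⟩, fun ⟨u, b1, b2⟩ => ⟨((z.1, u), (u, z.2)), ⟨⟨b1, b2⟩, sub_self u⟩, rfl⟩⟩
    rw [show y.1.2 = y.2.1 from sub_eq_zero.1 hy.2]
    exact hy.1.2
  have e3 : (Λ.prod Λ' ⊓ LinearMap.ker (π₁ - π₂) ⊓ LinearMap.ker π₃).map π₁ = rt Λ ⊓ lf Λ' := by
    ext u
    refine ⟨fun ⟨y, hy, e⟩ => ?_, fun hu => ⟨((0, u), (u, 0)), ⟨⟨⟨hu.1, hu.2⟩, sub_self u⟩, rfl⟩, rfl⟩⟩
    have := hy.1.1
    rw [a5 y hy, e] at this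
    exact this
  rw [← dt_prod h1 h2, dt_exact (π₁ - π₂) a1 fun y _ => a2 y, e1,
    dt_pp x (Z := rt Λ ⊓ lf Λ') fun u hu => ⟨inv_rt hg u hu.1, inv_lf hg' u hu.2⟩, dt_exact (f' := pm g g') π₃ a3 fun _ _ => rfl, e2,
    dt_inj (f' := (x.1 : V'' →ₗ[F] V'')) π₁ a4 (fun _ _ => rfl) fun y hy h0 => by rw [a5 y hy, h0]; rfl, e3]
  ring

theorem even_sp (Φ : Fm false F V) : Even (finrank F V) := by
  obtain ⟨L, h2, h3⟩ := set_has_maximal_iff_noetherian.2 (inferInstance : IsNoetherian F V) {L | Φ.TS L}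
    ⟨⊥, fun x hx _ _ => by rw [(Submodule.mem_bot F).1 hx, LinearMap.map_zero₂],
      fun x hx => by rw [(Submodule.mem_bot F).1 hx, map_zero]⟩
  have h4 : Φ.pp L = L := le_antisymm (fun v hv => by_contra fun h4 =>
    h3 _ (Fm.TS.sup_span h2 hv (by rw [(Φ.sp rfl).2]; rfl)) (Submodule.lt_sup_iff_notMem.2 h4)) (Fm.TS.le_pp h2)
  exact ⟨finrank F L, by rw [← Φ.finrank_pp L, h4]⟩

theorem det_sp {Φ : Fm false F V} (g : Φ.G) : LinearMap.det (g.1 : V →ₗ[F] V) = 1 := by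
  obtain ⟨k, hk⟩ := even_sp Φ
  rw [H200.DetSim.det_similitude Φ.B (Φ.sp rfl).1 Φ.nd.1 (hk.trans (two_mul k).symm) _ one_ne_zero
    fun u v => (g.2.1 u v).trans (one_mul _).symm, one_pow]

end fd

/-- `χ` is quadratic or trivial, and trivial on the determinants of the isometries -/
structure Qd (o : Bool) (χ : MulChar F ℂ) : Prop where
  sq : ∀ x ≠ 0, χ x * χ x = 1
  dt : ∀ (V : Type) [AddCommGroup V] [Module F V] [FiniteDimensional F V] (Φ : Fm o F V) (g : Φ.G),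
    χ (LinearMap.det (g.1 : V →ₗ[F] V)) = 1

theorem Qd.sp {χ : MulChar F ℂ} (h : ∀ x ≠ 0, χ x * χ x = 1) : Qd false χ :=
  ⟨h, fun _ _ _ _ _ g => by rw [det_sp g, map_one]⟩

theorem Qd.one : Qd o (1 : MulChar F ℂ) :=
  ⟨fun x hx => by rw [MulChar.one_apply hx.isUnit, one_mul], fun _ _ _ _ _ g => MulChar.one_apply g.1.isUnit_det'⟩

/-- the weight of a correspondence: `χ` of the determinant of `(g, g')` on it, `0` if it is not fixed -/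
noncomputable def wt (χ : MulChar F ℂ) (g : V ≃ₗ[F] V) (g' : V' ≃ₗ[F] V') (Λ : Submodule F (V × V')) : ℂ :=
  χ (dt (pm g g') Λ)

/-- the twisted kernel -/
noncomputable def Kx [Finite V] [Finite V'] (χ : MulChar F ℂ) (Φ : Fm o F V) (Φ' : Fm o F V') (i j : ℕ) (g : Φ.G)
    (g' : Φ'.G) : ℂ := ∑ Λ ∈ (Cor Φ Φ' i j).toFinite.toFinset, wt χ g.1 g'.1 Λ

/-- the operator with kernel `Kx` -/
noncomputable def opx [Finite V] [Finite V'] (χ : MulChar F ℂ) (Φ : Fm o F V) (Φ' : Fm o F V') (i j : ℕ) :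
    (Φ'.G → ℂ) →ₗ[ℂ] Φ.G → ℂ where
  toFun f g := (Fintype.card Φ'.G : ℂ)⁻¹ * ∑ g', Kx χ Φ Φ' i j g g' * f g'
  map_add' f f' := by funext g; simp [mul_add, Finset.sum_add_distrib]
  map_smul' c f := by
    funext g
    simp only [Pi.smul_apply, smul_eq_mul, RingHom.id_apply, Finset.mul_sum]
    exact Finset.sum_congr rfl fun _ _ => by ring

end Cfsg.Agent.PQ.Mk
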